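import Cfsg.Agent.Lib.Helper86.OE.N0
import Cfsg.Agent.Lib.Helper44.Isotropy

set_option autoImplicit false

/-! # Piece N7 of the even orthogonal campaign: `Ω` preserves no tensor decomposition with both
factors of dimension at least three -/

namespace Cfsg.Agent.Lib.Helper96.OE

open Cfsg Cfsg.Geo Matrix Cfsg.Agent.Lib.Helper13.Asch Cfsg.Agent.Lib.Helper90.Sp
  Cfsg.Agent.Lib.Helper57.OE
open Cfsg.Agent.Lib.Helper44 Cfsg.Agent.Lib.Helper13.O Cfsg.Agent.Lib.Helper94
  Cfsg.Agent.Lib.Helper86.OE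
open scoped Kronecker MatrixGroups

variable {ι : Type} [Fintype ι] [DecidableEq ι] {F : Type*} [Field F] {Q : (ι → F) → F}

/-- pure tensors -/
def tns {α β : Type} (u : α → F) (v : β → F) : α × β → F :=
  fun x => u x.1 * v x.2

/-- `v ↦ u ⊗ v` -/
def tnsR {α β : Type} (u : α → F) : (β → F) →ₗ[F] (α × β → F) where
  toFun v := tns u v
  map_add' v v' := by funext x; simp [tns, mul_add]
  map_smul' c v := by funext x; simp [tns]; ring

/-- `u ↦ u ⊗ v` -/
def tnsL {α β : Type} (v : β → F) : (α → F) →ₗ[F] (α × β → F) where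
  toFun u := tns u v
  map_add' u u' := by funext x; simp [tns, add_mul]
  map_smul' c u := by funext x; simp [tns]; ring

theorem tns_single {α β : Type} [DecidableEq α] [DecidableEq β] (x : α × β) :
    tns (Pi.single x.1 (1 : F)) (Pi.single x.2 (1 : F)) = Pi.single x 1 := by
  funext y
  unfold tns
  by_cases hy : y = x
  · subst hy; simp
  · rw [Pi.single_eq_of_ne hy]
    by_cases h1 : y.1 = x.1
    · have h2 : y.2 ≠ x.2 := fun h2 => hy (Prod.ext h1 h2)
      rw [Pi.single_eq_of_ne h2, mul_zero]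
    · rw [Pi.single_eq_of_ne h1, zero_mul]

/-- a matrix having every vector as an eigenvector is a scalar -/
theorem scalar_of_eigen {α : Type} [Fintype α] [DecidableEq α] (A : Matrix α α F)
    (h : ∀ u : α → F, u ≠ 0 → ∃ c : F, A *ᵥ u = c • u) : ∃ c : F, ∀ u, A *ᵥ u = c • u := by
  obtain ⟨c, hc⟩ := (Matrix.mulVecLin A).exists_eq_smul_id_of_forall_notLinearIndependent
    fun (v : α → F) => by
      by_cases hv : v = 0
      · simp [hv, linearIndependent_fin2]
      · rw [LinearIndependent.pair_iff' hv]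
        push Not
        obtain ⟨c, hc⟩ := h v hv
        exact ⟨c, by rw [Matrix.mulVecLin_apply, hc]⟩
  refine ⟨c, fun u => ?_⟩
  have := LinearMap.congr_fun hc u
  rw [Matrix.mulVecLin_apply] at this
  rw [this]
  rfl

theorem kron_mulVec_tns {α β : Type} [Fintype α] [Fintype β] (A : Matrix α α F) (B : Matrix β β F)
    (u : α → F) (v : β → F) :
    (A ⊗ₖ B) *ᵥ tns u v = tns (A *ᵥ u) (B *ᵥ v) := by
  funext x
  obtain ⟨i, j⟩ := x
  simp only [tns, Matrix.mulVec, dotProduct, Matrix.kroneckerMap_apply]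
  rw [Fintype.sum_prod_type, Finset.sum_mul_sum]
  refine Finset.sum_congr rfl fun k _ => Finset.sum_congr rfl fun l _ => ?_
  ring

/-- A Kronecker product fixing a subspace of codimension at most two pointwise is trivial, when
both factors have dimension at least three. -/
theorem kron_eq_one {α β : Type} [Fintype α] [DecidableEq α]
    [Fintype β] [DecidableEq β] (hα : 3 ≤ Fintype.card α) (hβ : 3 ≤ Fintype.card β)
    (A : Matrix α α F) (B : Matrix β β F)
    (φ ψ : (α × β → F) →ₗ[F] F)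
    (hfix : ∀ x, φ x = 0 → ψ x = 0 → (A ⊗ₖ B) *ᵥ x = x) : A ⊗ₖ B = 1 := by
  have hA : ∀ u : α → F, u ≠ 0 → ∃ c : F, A *ᵥ u = c • u := by
    intro u hu
    let L : (β → F) →ₗ[F] (Fin 2 → F) := LinearMap.pi ![φ.comp (tnsR u), ψ.comp (tnsR u)]
    have hker : LinearMap.ker L ≠ ⊥ := by
      apply LinearMap.ker_ne_bot_of_finrank_lt
      rw [Module.finrank_fintype_fun_eq_card, Module.finrank_fintype_fun_eq_card, Fintype.card_fin]
      omega
    obtain ⟨v, hvL, hv0⟩ := Submodule.exists_mem_ne_zero_of_ne_bot hker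
    rw [LinearMap.mem_ker] at hvL
    have hv1 : φ (tns u v) = 0 := congrFun hvL 0
    have hv2 : ψ (tns u v) = 0 := congrFun hvL 1
    have h1 : tns (A *ᵥ u) (B *ᵥ v) = tns u v := by
      rw [← kron_mulVec_tns, hfix _ hv1 hv2]
    obtain ⟨j, hj⟩ := Function.ne_iff.1 hv0
    obtain ⟨i0, hi0⟩ := Function.ne_iff.1 hu
    have h2 : ∀ i, (A *ᵥ u) i * (B *ᵥ v) j = u i * v j := by
      intro i
      exact congrFun h1 (i, j)
    have hB : (B *ᵥ v) j ≠ 0 := by
      intro h0
      have := h2 i0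
      rw [h0, mul_zero] at this
      exact mul_ne_zero hi0 hj this.symm
    refine ⟨v j / (B *ᵥ v) j, ?_⟩
    funext i
    rw [Pi.smul_apply, smul_eq_mul, div_mul_eq_mul_div, eq_div_iff hB, h2 i, mul_comm]
  have hB : ∀ v : β → F, v ≠ 0 → ∃ c : F, B *ᵥ v = c • v := by
    intro v hv
    let L : (α → F) →ₗ[F] (Fin 2 → F) := LinearMap.pi ![φ.comp (tnsL v), ψ.comp (tnsL v)]
    have hker : LinearMap.ker L ≠ ⊥ := by
      apply LinearMap.ker_ne_bot_of_finrank_lt
      rw [Module.finrank_fintype_fun_eq_card, Module.finrank_fintype_fun_eq_card, Fintype.card_fin]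
      omega
    obtain ⟨u, huL, hu0⟩ := Submodule.exists_mem_ne_zero_of_ne_bot hker
    rw [LinearMap.mem_ker] at huL
    have hu1 : φ (tns u v) = 0 := congrFun huL 0
    have hu2 : ψ (tns u v) = 0 := congrFun huL 1
    have h1 : tns (A *ᵥ u) (B *ᵥ v) = tns u v := by
      rw [← kron_mulVec_tns, hfix _ hu1 hu2]
    obtain ⟨i, hi⟩ := Function.ne_iff.1 hu0
    obtain ⟨j0, hj0⟩ := Function.ne_iff.1 hv
    have h2 : ∀ j, (A *ᵥ u) i * (B *ᵥ v) j = u i * v j := by
      intro j
      exact congrFun h1 (i, j)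
    have hA' : (A *ᵥ u) i ≠ 0 := by
      intro h0
      have := h2 j0
      rw [h0, zero_mul] at this
      exact mul_ne_zero hi hj0 this.symm
    refine ⟨u i / (A *ᵥ u) i, ?_⟩
    funext j
    rw [Pi.smul_apply, smul_eq_mul, div_mul_eq_mul_div, eq_div_iff hA', mul_comm, h2 j]
  obtain ⟨α0, hα0⟩ := scalar_of_eigen A hA
  obtain ⟨β0, hβ0⟩ := scalar_of_eigen B hB
  -- the product of the two scalars is one
  have hpure : ∀ u v, (A ⊗ₖ B) *ᵥ tns u v = (α0 * β0) • tns u v := by
    intro u v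
    rw [kron_mulVec_tns, hα0, hβ0]
    funext y
    simp only [tns, Pi.smul_apply, smul_eq_mul]
    ring
  have hone : α0 * β0 = 1 := by
    obtain ⟨i0⟩ : Nonempty α := Fintype.card_pos_iff.1 (by omega)
    let u : α → F := Pi.single i0 1
    have hu : u ≠ 0 := by
      intro h
      have := congrFun h i0
      simp [u] at this
    let L : (β → F) →ₗ[F] (Fin 2 → F) := LinearMap.pi ![φ.comp (tnsR u), ψ.comp (tnsR u)]
    have hker : LinearMap.ker L ≠ ⊥ := by
      apply LinearMap.ker_ne_bot_of_finrank_lt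
      rw [Module.finrank_fintype_fun_eq_card, Module.finrank_fintype_fun_eq_card, Fintype.card_fin]
      omega
    obtain ⟨v, hvL, hv0⟩ := Submodule.exists_mem_ne_zero_of_ne_bot hker
    rw [LinearMap.mem_ker] at hvL
    have hv1 : φ (tns u v) = 0 := congrFun hvL 0
    have hv2 : ψ (tns u v) = 0 := congrFun hvL 1
    obtain ⟨j, hj⟩ := Function.ne_iff.1 hv0
    have h1 := hpure u v
    rw [hfix _ hv1 hv2] at h1
    have h2 := congrFun h1 (i0, j)
    simp only [tns, Pi.smul_apply, smul_eq_mul, u, Pi.single_eq_same, one_mul] at h2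
    have hj' : v j ≠ 0 := hj
    field_simp at h2
    exact h2.symm
  -- conclusion
  apply Matrix.toLin'.injective
  apply LinearMap.pi_ext'
  intro x
  ext : 1
  rw [LinearMap.comp_apply, LinearMap.comp_apply, LinearMap.single_apply, Matrix.toLin'_apply,
    Matrix.toLin'_apply, ← tns_single, hpure, hone, one_smul, Matrix.one_mulVec]

theorem not_le_tensor [Fintype F] (hQ : IsNondegenerateQuadraticForm Q)
    (hι : 5 ≤ Fintype.card ι) {a b : ℕ} (ha : 3 ≤ a) (hb : 3 ≤ b) (e : ι ≃ Fin a × Fin b)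
    (P : GL ι F) : ¬ omegaGL Q ≤ tensorProductSubgroup a b e P := by
  classical
  intro hle
  set Q' := quadOf Q hQ with hQ'
  have hnd : (QuadraticMap.polarBilin Q').Nondegenerate := quadOf_nondeg hQ
  have hfr : Module.finrank F (ι → F) = Fintype.card ι := finrank_fun
  obtain ⟨u, -, hu0, hQu⟩ := exists_singular_of_finrank Q' ⊤ (by rw [finrank_top]; omega)
  obtain ⟨a₀, ha', b₀, hb', hab⟩ := exists_pair_ne hnd {u}
    (by rw [Finset.card_singleton, hfr]; omega)
  have hua : QuadraticMap.polar Q' u a₀ = 0 := Cfsg.Agent.Lib.Helper13.O.mem_orth.1 ha' u (by simp)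
  have hub : QuadraticMap.polar Q' u b₀ = 0 := Cfsg.Agent.Lib.Helper13.O.mem_orth.1 hb' u (by simp)
  obtain ⟨g, hg, hgx⟩ := exists_eichler hQ hι u a₀ hQu hua
  have hgx' : ∀ x, (g : Matrix ι ι F) *ᵥ x =
      x + QuadraticMap.polar Q' a₀ x • u - QuadraticMap.polar Q' u x • a₀ -
        (Q' a₀ * QuadraticMap.polar Q' u x) • u := hgx
  obtain ⟨_, ⟨k, ⟨A, B, hAB⟩, rfl⟩, hk2⟩ := hle hg
  have hk3 : g = P * glReindex e.symm k * P⁻¹ := hk2.symm
  have hPi : ((P⁻¹ : GL ι F) : Matrix ι ι F) * (P : Matrix ι ι F) = 1 := by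
    rw [← Units.val_mul, inv_mul_cancel, Units.val_one]
  have hPi' : (P : Matrix ι ι F) * ((P⁻¹ : GL ι F) : Matrix ι ι F) = 1 := by
    rw [← Units.val_mul, mul_inv_cancel, Units.val_one]
  have hcoe : ((glReindex e.symm k : GL ι F) : Matrix ι ι F) =
      Matrix.reindex e.symm e.symm (k : Matrix (Fin a × Fin b) (Fin a × Fin b) F) := rfl
  -- the action of `k`
  have hmv : ∀ z : Fin a × Fin b → F, (k : Matrix (Fin a × Fin b) (Fin a × Fin b) F) *ᵥ z =
      (((glReindex e.symm k : GL ι F) : Matrix ι ι F) *ᵥ (z ∘ e)) ∘ e.symm := by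
    intro z
    funext i
    rw [hcoe]
    simp only [Function.comp, Matrix.mulVec, dotProduct, Matrix.reindex_apply,
      Matrix.submatrix_apply, Equiv.symm_symm, Equiv.apply_symm_apply]
    exact (Equiv.sum_comp e (fun j => (k : Matrix _ _ F) i j * z j)).symm
  have hR : ((glReindex e.symm k : GL ι F) : Matrix ι ι F) =
      ((P⁻¹ : GL ι F) : Matrix ι ι F) * (g : Matrix ι ι F) * (P : Matrix ι ι F) := by
    rw [hk3, Units.val_mul, Units.val_mul, ← mul_assoc, ← mul_assoc, hPi, one_mul, mul_assoc,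
      hPi, mul_one]
  let T : (Fin a × Fin b → F) →ₗ[F] (ι → F) :=
    (Matrix.mulVecLin (P : Matrix ι ι F)).comp (LinearMap.funLeft F F e)
  have hT : ∀ z, T z = (P : Matrix ι ι F) *ᵥ (z ∘ e) := fun z => rfl
  have hone : (A : Matrix (Fin a) (Fin a) F) ⊗ₖ (B : Matrix (Fin b) (Fin b) F) = 1 := by
    refine kron_eq_one (by simpa using ha) (by simpa using hb) (A : Matrix (Fin a) (Fin a) F)
      (B : Matrix (Fin b) (Fin b) F)
      ((QuadraticMap.polarBilin Q' a₀).comp T) ((QuadraticMap.polarBilin Q' u).comp T) ?_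
    intro z h1 h2
    have h1' : QuadraticMap.polar Q' a₀ ((P : Matrix ι ι F) *ᵥ (z ∘ e)) = 0 := h1
    have h2' : QuadraticMap.polar Q' u ((P : Matrix ι ι F) *ᵥ (z ∘ e)) = 0 := h2
    rw [← hAB, hmv, hR, ← Matrix.mulVec_mulVec, ← Matrix.mulVec_mulVec, hgx', h1', h2']
    simp only [zero_smul, mul_zero, add_zero, sub_zero]
    rw [Matrix.mulVec_mulVec, hPi, Matrix.one_mulVec]
    funext i
    simp
  have hk1 : k = 1 := by
    apply Units.ext
    rw [hAB, hone, Units.val_one]
  have hg1 : g = 1 := by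
    rw [hk3, hk1, map_one, mul_one, mul_inv_cancel]
  have h3 := hgx' b₀
  rw [hg1, Units.val_one, Matrix.one_mulVec, hub] at h3
  simp only [zero_smul, mul_zero, sub_zero] at h3
  have h4 : QuadraticMap.polar Q' a₀ b₀ • u = 0 := by
    have := h3.symm
    rwa [add_eq_left] at this
  rcases smul_eq_zero.1 h4 with h | h
  · exact hab h
  · exact hu0 h

end Cfsg.Agent.Lib.Helper96.OE
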