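import Cfsg.Agent.Lib.Helper86.OE.N0
import Cfsg.Agent.Lib.Helper44.Isotropy

set_option autoImplicit false

/-! # Piece N4 of the even orthogonal campaign: `Ω` does not normalise an extension field -/

namespace Cfsg.Agent.Lib.Helper96.OE

open Cfsg Cfsg.Geo Matrix Cfsg.Agent.Lib.Helper13.Asch Cfsg.Agent.Lib.Helper90.Sp
  Cfsg.Agent.Lib.Helper57.OE
open Cfsg.Agent.Lib.Helper44 Cfsg.Agent.Lib.Helper13.O Cfsg.Agent.Lib.Helper94
  Cfsg.Agent.Lib.Helper86.OE
open scoped Kronecker MatrixGroups

variable {ι : Type} [Fintype ι] [DecidableEq ι] {F : Type*} [Field F] {Q : (ι → F) → F}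

theorem not_le_field [Fintype F] (hQ : IsNondegenerateQuadraticForm Q) (hι : 5 ≤ Fintype.card ι)
    {r : ℕ} (hr : r.Prime) (K : Subalgebra F (Matrix ι ι F)) (hK : IsFieldSubalgebra r K) :
    ¬ omegaGL Q ≤ subalgebraNormalizer K := by
  classical
  intro hle
  set Q' := quadOf Q hQ with hQ'
  have hnd : (QuadraticMap.polarBilin Q').Nondegenerate := quadOf_nondeg hQ
  have hfr : Module.finrank F (ι → F) = Fintype.card ι := finrank_fun
  obtain ⟨u, -, hu0, hQu⟩ := exists_singular_of_finrank Q' ⊤ (by rw [finrank_top]; omega)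
  -- an element of `K` killing a non-zero vector vanishes
  have kill : ∀ d ∈ K, ∀ y : ι → F, y ≠ 0 → d *ᵥ y = 0 → d = 0 := by
    intro d hd y hy hdy
    by_contra hd0
    obtain ⟨d', hd', h1⟩ := hK.inv d hd hd0
    have h2 : d' * d = 1 := by rw [hK.comm d' hd' d hd]; exact h1
    apply hy
    calc y = (d' * d) *ᵥ y := by rw [h2, Matrix.one_mulVec]
      _ = d' *ᵥ (d *ᵥ y) := (Matrix.mulVec_mulVec _ _ _).symm
      _ = 0 := by rw [hdy, Matrix.mulVec_zero]
  -- the elements of `K` commute with the Eichler transformations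
  have comm : ∀ k ∈ K, ∀ v : ι → F, QuadraticMap.polar Q' u v = 0 → ∀ x : ι → F,
      k *ᵥ (QuadraticMap.polar Q' v x • u - QuadraticMap.polar Q' u x • v -
        (Q' v * QuadraticMap.polar Q' u x) • u) =
      QuadraticMap.polar Q' v (k *ᵥ x) • u - QuadraticMap.polar Q' u (k *ᵥ x) • v -
        (Q' v * QuadraticMap.polar Q' u (k *ᵥ x)) • u := by
    intro k hk v huv x
    obtain ⟨g, hg, hgx⟩ := exists_eichler hQ hι u v hQu huv
    have hgx' : ∀ x, (g : Matrix ι ι F) *ᵥ x =
      x + QuadraticMap.polar Q' v x • u - QuadraticMap.polar Q' u x • v -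
        (Q' v * QuadraticMap.polar Q' u x) • u := hgx
    have hgK := (hle hg k).1 hk
    let L : (ι → F) →ₗ[F] (Fin 4 → F) := LinearMap.pi
      ![QuadraticMap.polarBilin Q' v, QuadraticMap.polarBilin Q' u,
        (QuadraticMap.polarBilin Q' v).comp (Matrix.toLin' k),
        (QuadraticMap.polarBilin Q' u).comp (Matrix.toLin' k)]
    have hker : LinearMap.ker L ≠ ⊥ := by
      apply LinearMap.ker_ne_bot_of_finrank_lt
      rw [hfr, Module.finrank_fintype_fun_eq_card, Fintype.card_fin]
      omega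
    obtain ⟨x₀, hx₀, hx₀0⟩ := Submodule.exists_mem_ne_zero_of_ne_bot hker
    rw [LinearMap.mem_ker] at hx₀
    have e0 : QuadraticMap.polar Q' v x₀ = 0 := congrFun hx₀ 0
    have e1 : QuadraticMap.polar Q' u x₀ = 0 := congrFun hx₀ 1
    have e2 : QuadraticMap.polar Q' v (k *ᵥ x₀) = 0 := congrFun hx₀ 2
    have e3 : QuadraticMap.polar Q' u (k *ᵥ x₀) = 0 := congrFun hx₀ 3
    have f1 : (g : Matrix ι ι F) *ᵥ x₀ = x₀ := by rw [hgx', e0, e1]; simp
    have f2 : (g : Matrix ι ι F) *ᵥ (k *ᵥ x₀) = k *ᵥ x₀ := by rw [hgx', e2, e3]; simp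
    have f3 : ((g⁻¹ : GL ι F) : Matrix ι ι F) *ᵥ x₀ = x₀ := by
      conv_lhs => rw [← f1]
      rw [Matrix.mulVec_mulVec, ← Units.val_mul, inv_mul_cancel, Units.val_one, Matrix.one_mulVec]
    have hδ : (g : Matrix ι ι F) * k * ((g⁻¹ : GL ι F) : Matrix ι ι F) - k = 0 := by
      apply kill _ (K.sub_mem hgK hk) x₀ hx₀0
      rw [Matrix.sub_mulVec, ← Matrix.mulVec_mulVec, ← Matrix.mulVec_mulVec, f3, f2, sub_self]
    have hgk : (g : Matrix ι ι F) * k = k * (g : Matrix ι ι F) := by
      have h1 := sub_eq_zero.1 hδ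
      calc (g : Matrix ι ι F) * k
          = (g : Matrix ι ι F) * k * (((g⁻¹ : GL ι F) : Matrix ι ι F) * (g : Matrix ι ι F)) := by
            rw [← Units.val_mul, inv_mul_cancel, Units.val_one, mul_one]
        _ = ((g : Matrix ι ι F) * k * ((g⁻¹ : GL ι F) : Matrix ι ι F)) * (g : Matrix ι ι F) := by
            simp only [mul_assoc]
        _ = _ := by rw [h1]
    have h2 : (g : Matrix ι ι F) *ᵥ (k *ᵥ x) = k *ᵥ ((g : Matrix ι ι F) *ᵥ x) := by
      rw [Matrix.mulVec_mulVec, Matrix.mulVec_mulVec, hgk]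
    rw [hgx' (k *ᵥ x), hgx' x] at h2
    have h3 : x + QuadraticMap.polar Q' v x • u - QuadraticMap.polar Q' u x • v -
        (Q' v * QuadraticMap.polar Q' u x) • u = x + (QuadraticMap.polar Q' v x • u -
        QuadraticMap.polar Q' u x • v - (Q' v * QuadraticMap.polar Q' u x) • u) := by abel
    rw [h3, Matrix.mulVec_add] at h2
    have h4 : k *ᵥ x + QuadraticMap.polar Q' v (k *ᵥ x) • u - QuadraticMap.polar Q' u (k *ᵥ x) • v -
        (Q' v * QuadraticMap.polar Q' u (k *ᵥ x)) • u = k *ᵥ x + (QuadraticMap.polar Q' v (k *ᵥ x) • u -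
        QuadraticMap.polar Q' u (k *ᵥ x) • v - (Q' v * QuadraticMap.polar Q' u (k *ᵥ x)) • u) := by abel
    rw [h4] at h2
    exact (add_left_cancel h2).symm
  -- on `u^⊥`
  have comm' : ∀ k ∈ K, ∀ v : ι → F, QuadraticMap.polar Q' u v = 0 → ∀ x : ι → F,
      QuadraticMap.polar Q' u x = 0 →
      QuadraticMap.polar Q' v x • (k *ᵥ u) =
      QuadraticMap.polar Q' v (k *ᵥ x) • u - QuadraticMap.polar Q' u (k *ᵥ x) • v -
        (Q' v * QuadraticMap.polar Q' u (k *ᵥ x)) • u := by
    intro k hk v hv x hx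
    have := comm k hk v hv x
    rw [hx] at this
    simpa [Matrix.mulVec_smul] using this
  have hperp : 4 ≤ Module.finrank F (orth Q' {u}) := by
    have := finrank_orth hnd {u}
    rw [hfr, Finset.card_singleton] at this
    omega
  -- every element of `K` is a scalar
  have scal : ∀ k ∈ K, ∃ c : F, k = c • (1 : Matrix ι ι F) := by
    intro k hk
    have ha : ∀ x : ι → F, QuadraticMap.polar Q' u x = 0 → QuadraticMap.polar Q' u (k *ᵥ x) = 0 := by
      intro x hx
      by_contra hc
      have hsub : orth Q' {u} ≤ Submodule.span F ({u, k *ᵥ u} : Set (ι → F)) := by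
        intro v hv
        have hv' : QuadraticMap.polar Q' u v = 0 := Cfsg.Agent.Lib.Helper13.O.mem_orth.1 hv u (by simp)
        have h1 := comm' k hk v hv' x hx
        have h2 : v = (QuadraticMap.polar Q' u (k *ᵥ x))⁻¹ • (QuadraticMap.polar Q' v (k *ᵥ x) • u -
            (Q' v * QuadraticMap.polar Q' u (k *ᵥ x)) • u - QuadraticMap.polar Q' v x • (k *ᵥ u)) := by
          rw [h1]
          have : QuadraticMap.polar Q' v (k *ᵥ x) • u - (Q' v * QuadraticMap.polar Q' u (k *ᵥ x)) • u -
              (QuadraticMap.polar Q' v (k *ᵥ x) • u - QuadraticMap.polar Q' u (k *ᵥ x) • v -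
              (Q' v * QuadraticMap.polar Q' u (k *ᵥ x)) • u) = QuadraticMap.polar Q' u (k *ᵥ x) • v := by
            abel
          rw [this, smul_smul, inv_mul_cancel₀ hc, one_smul]
        rw [h2]
        have hu' : u ∈ Submodule.span F ({u, k *ᵥ u} : Set (ι → F)) :=
          Submodule.subset_span (by simp)
        have hku' : k *ᵥ u ∈ Submodule.span F ({u, k *ᵥ u} : Set (ι → F)) :=
          Submodule.subset_span (by simp)
        exact Submodule.smul_mem _ _ (Submodule.sub_mem _ (Submodule.sub_mem _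
          (Submodule.smul_mem _ _ hu') (Submodule.smul_mem _ _ hu')) (Submodule.smul_mem _ _ hku'))
      have h1 := Submodule.finrank_mono hsub
      have h2 : Module.finrank F (Submodule.span F ({u, k *ᵥ u} : Set (ι → F))) ≤ 2 := by
        have := finrank_span_finset_le_card (R := F) ({u, k *ᵥ u} : Finset (ι → F))
        have h3 : (({u, k *ᵥ u} : Finset (ι → F)) : Set (ι → F)) = {u, k *ᵥ u} := by simp
        rw [h3] at this
        exact this.trans Finset.card_le_two
      omega
    obtain ⟨a, ha', b, hb', hab⟩ := exists_pair_ne hnd {u} (by rw [Finset.card_singleton, hfr]; omega)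
    have hua : QuadraticMap.polar Q' u a = 0 := Cfsg.Agent.Lib.Helper13.O.mem_orth.1 ha' u (by simp)
    have hub : QuadraticMap.polar Q' u b = 0 := Cfsg.Agent.Lib.Helper13.O.mem_orth.1 hb' u (by simp)
    have h1 := comm' k hk a hua b hub
    rw [ha b hub] at h1
    simp only [zero_smul, mul_zero, sub_zero] at h1
    set c : F := (QuadraticMap.polar Q' a b)⁻¹ * QuadraticMap.polar Q' a (k *ᵥ b) with hc
    have hku : k *ᵥ u = c • u := by
      rw [hc, mul_smul, ← h1, smul_smul, inv_mul_cancel₀ hab, one_smul]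
    refine ⟨c, ?_⟩
    have hd : k - c • (1 : Matrix ι ι F) = 0 := by
      apply kill _ (K.sub_mem hk (K.smul_mem K.one_mem c)) u hu0
      rw [Matrix.sub_mulVec, Matrix.smul_mulVec, Matrix.one_mulVec, hku, sub_self]
    exact sub_eq_zero.1 hd
  have hle1 : Subalgebra.toSubmodule K ≤ Submodule.span F {(1 : Matrix ι ι F)} := by
    intro k hk
    obtain ⟨c, rfl⟩ := scal k hk
    exact Submodule.smul_mem _ _ (Submodule.mem_span_singleton_self _)
  have h1 := Submodule.finrank_mono hle1
  have h2 : Module.finrank F (Submodule.span F {(1 : Matrix ι ι F)}) ≤ 1 := by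
    have := finrank_span_finset_le_card (R := F) ({(1 : Matrix ι ι F)} : Finset (Matrix ι ι F))
    rw [Finset.coe_singleton, Finset.card_singleton] at this
    exact this
  have h3 : Module.finrank F (Subalgebra.toSubmodule K) = r := hK.finrank_eq
  have := hr.two_le
  omega

end Cfsg.Agent.Lib.Helper96.OE
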