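import Cfsg.Agent.Lib.Helper57.OE.Defs
import Cfsg.Agent.Lib.Helper13.OrthHalves
import Cfsg.Agent.Lib.Helper94.QuadWrap

set_option autoImplicit false

/-! # Piece P1b of the even orthogonal campaign: two isometric orthogonal halves of even dimension -/

namespace Cfsg.Agent.Lib.Helper96.OE

open Cfsg Cfsg.Geo Matrix Cfsg.Agent.Lib.Helper13.Asch Cfsg.Agent.Lib.Helper90.Sp
  Cfsg.Agent.Lib.Helper57.OE
open scoped Kronecker MatrixGroups

variable {ι : Type} [Fintype ι] [DecidableEq ι] {F : Type*} [Field F] {Q : (ι → F) → F}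

theorem plus_of_halves [Fintype F] (hQ : IsNondegenerateQuadraticForm Q)
    (W W' : Submodule F (ι → F)) (φ : (ι → F) →ₗ[F] (ι → F)) (hc : IsCompl W W')
    (horth : ∀ w ∈ W, ∀ w' ∈ W', QuadraticMap.polar Q w w' = 0)
    (hφ : ∀ w ∈ W, φ w ∈ W' ∧ Q (φ w) = Q w) (hdim : 2 * Module.finrank F W = Fintype.card ι)
    (hev : Even (Module.finrank F W)) : IsPlusTypeOn Q ⊤ := by
  set Q' := Cfsg.Agent.Lib.Helper94.quadOf Q hQ with hQ'
  have hQa : ∀ x, Q' x = Q x := fun x => rfl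
  have hpol : ∀ x y, QuadraticMap.polar Q' x y = QuadraticMap.polar Q x y := fun x y => rfl
  obtain ⟨J, hJ⟩ : ∃ J : (ι → F) →ₗ[F] (ι → F), ∀ w ∈ W, J w ∈ W ∧ Q (J w) = - Q w := by
    by_cases h2 : (2 : F) = 0
    · refine ⟨LinearMap.id, fun w hw => ⟨hw, ?_⟩⟩
      have : Q w + Q w = 0 := by rw [← two_mul, h2, zero_mul]
      simpa using eq_neg_of_add_eq_zero_left this
    · obtain ⟨j, hj⟩ := hev
      exact Cfsg.Agent.Lib.Helper13.O.exists_neg_similarity h2 Q' j W (by omega)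
        (fun w hw hw0 => by
          obtain ⟨z, hz⟩ := (hQ.nondegenerate w hw0).1
          have hz' : z ∈ W ⊔ W' := by rw [hc.sup_eq_top]; trivial
          obtain ⟨a, ha, b, hb, rfl⟩ := Submodule.mem_sup.1 hz'
          refine ⟨a, ha, ?_⟩
          rw [hQ.polar_bilinear.add_left, QuadraticMap.polar_comm Q b w, horth w hw b hb,
            add_zero] at hz
          exact hz)
  set Ψ : (ι → F) →ₗ[F] (ι → F) := LinearMap.id + φ.comp J with hΨ
  have hΨa : ∀ w, Ψ w = w + φ (J w) := fun w => by simp [hΨ]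
  refine ⟨W.map Ψ, le_top, ?_, ?_⟩
  · rintro _ ⟨w, hw, rfl⟩
    obtain ⟨h1, h2⟩ := hJ w hw
    have h3 := hφ _ h1
    have h4 : Q (w + φ (J w)) = Q w + Q (φ (J w)) + QuadraticMap.polar Q w (φ (J w)) := by
      unfold QuadraticMap.polar; ring
    rw [hΨa, h4, h3.2, h2, horth w hw _ h3.1]
    simp
  · have hfr : Module.finrank F ↥(W.map Ψ) = Module.finrank F W := by
      rw [← LinearMap.range_domRestrict]
      apply LinearMap.finrank_range_of_inj
      rw [← LinearMap.ker_eq_bot, LinearMap.ker_eq_bot']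
      rintro ⟨w, hw⟩ h0
      have h1 : w + φ (J w) = 0 := by
        have : Ψ w = 0 := h0
        rwa [hΨa] at this
      have h2 : w = - φ (J w) := eq_neg_of_add_eq_zero_left h1
      have h3 : w ∈ W' := by
        rw [h2]; exact W'.neg_mem (hφ _ (hJ w hw).1).1
      have h4 : w ∈ W ⊓ W' := ⟨hw, h3⟩
      rw [hc.inf_eq_bot, Submodule.mem_bot] at h4
      exact Subtype.ext h4
    rw [hfr, hdim, finrank_top, Module.finrank_fintype_fun_eq_card]

end Cfsg.Agent.Lib.Helper96.OE
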