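import Cfsg.Agent.Lib.Helper57.OE.Defs
import Cfsg.Agent.Lib.Helper58.Asch.L0a
import Cfsg.Agent.Lib.Helper94.QuadWrap

set_option autoImplicit false

/-! # Piece P5 of the even orthogonal campaign: a hyperbolic plane over a field with at most three
elements -/

namespace Cfsg.Agent.Lib.Helper96.OE

open Cfsg Cfsg.Geo Matrix Cfsg.Agent.Lib.Helper13.Asch Cfsg.Agent.Lib.Helper90.Sp
  Cfsg.Agent.Lib.Helper57.OE
open scoped Kronecker MatrixGroups

variable {ι : Type} [Fintype ι] [DecidableEq ι] {F : Type*} [Field F] {Q : (ι → F) → F}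

theorem sq_eq_one_of_card_le [Fintype F] (hq : Fintype.card F ≤ 3) {x : F} (hx : x ≠ 0) :
    x * x = 1 := by
  have h1 := FiniteField.pow_card_sub_one_eq_one x hx
  have h2 : 1 < Fintype.card F := Fintype.one_lt_card
  have h3 : Fintype.card F = 2 ∨ Fintype.card F = 3 := by omega
  rcases h3 with h | h
  · rw [h] at h1
    have : x = 1 := by simpa using h1
    rw [this, one_mul]
  · rw [h] at h1
    have : x ^ 2 = 1 := h1
    rwa [sq] at this

theorem plus_plane_small [Fintype F] (hQ : IsNondegenerateQuadraticForm Q)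
    (hq : Fintype.card F ≤ 3) {H : Subgroup (GL ι F)} (hH : FixesQuadForm (matrixSet H) Q)
    (W : Submodule F (ι → F)) (hnd : IsNondegenerateOn (QuadraticMap.polar Q) W)
    (hdim : Module.finrank F W = 2) (hplus : IsPlusTypeOn Q W) (hHW : H ≤ subspaceStabilizer W) :
    RVec Q H := by
  classical
  set Q' := Cfsg.Agent.Lib.Helper94.quadOf Q hQ with hQ'
  have hQa : ∀ x, Q x = Q' x := fun x => rfl
  obtain ⟨U, hUW, hU0, hUd⟩ := hplus
  have hU1 : Module.finrank F U = 1 := by omega
  have hUne : U ≠ ⊥ := by
    intro h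
    rw [h, finrank_bot] at hU1
    omega
  obtain ⟨e, heU, he0⟩ := Submodule.exists_mem_ne_zero_of_ne_bot hUne
  have heW : e ∈ W := hUW heU
  have hQe : Q' e = 0 := hU0 e heU
  obtain ⟨x, hxW, hx⟩ := (hnd e heW he0).2
  have hx' : QuadraticMap.polar Q' e x ≠ 0 := hx
  set s : F := (QuadraticMap.polar Q' e x)⁻¹ with hs
  have hs1 : s * QuadraticMap.polar Q' e x = 1 := inv_mul_cancel₀ hx'
  set f : ι → F := s • x - (s * s * Q' x) • e with hf
  have hfW : f ∈ W := W.sub_mem (W.smul_mem _ hxW) (W.smul_mem _ heW)
  have hee : QuadraticMap.polar Q' e e = 0 := by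
    rw [QuadraticMap.polar_self, hQe, smul_zero]
  have hef : QuadraticMap.polar Q' e f = 1 := by
    rw [hf, QuadraticMap.polar_sub_right, QuadraticMap.polar_smul_right,
      QuadraticMap.polar_smul_right, hee, smul_eq_mul, smul_eq_mul, mul_zero, sub_zero, hs1]
  have hQf : Q' f = 0 := by
    have h1 : f = s • x + (-(s * s * Q' x)) • e := by rw [hf, neg_smul, sub_eq_add_neg]
    rw [h1, QuadraticMap.map_add (⇑Q'), QuadraticMap.map_smul, QuadraticMap.map_smul, hQe,
      QuadraticMap.polar_smul_left, QuadraticMap.polar_smul_right, QuadraticMap.polar_comm Q' x e]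
    simp only [smul_eq_mul, mul_zero, add_zero]
    linear_combination (-(s * s * Q' x)) * hs1
  have hff : QuadraticMap.polar Q' f f = 0 := by
    rw [QuadraticMap.polar_self, hQf, smul_zero]
  have hQab : ∀ a b : F, Q' (a • e + b • f) = a * b := by
    intro a b
    rw [QuadraticMap.map_add (⇑Q'), QuadraticMap.map_smul, QuadraticMap.map_smul, hQe, hQf,
      QuadraticMap.polar_smul_left, QuadraticMap.polar_smul_right, hef]
    simp
  have hli : LinearIndependent F ![e, f] := by
    rw [LinearIndependent.pair_iff]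
    intro a b hab
    have h1 : QuadraticMap.polar Q' e (a • e + b • f) = b := by
      rw [QuadraticMap.polar_add_right, QuadraticMap.polar_smul_right,
        QuadraticMap.polar_smul_right, hee, hef]
      simp
    have h2 : QuadraticMap.polar Q' (a • e + b • f) f = a := by
      rw [QuadraticMap.polar_add_left, QuadraticMap.polar_smul_left,
        QuadraticMap.polar_smul_left, hff, hef]
      simp
    rw [hab] at h1 h2
    simp only [QuadraticMap.polar_zero_right, QuadraticMap.polar_zero_left] at h1 h2
    exact ⟨h2.symm, h1.symm⟩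
  have hspan : Submodule.span F {e, f} = W := by
    apply Submodule.eq_of_le_of_finrank_eq
    · rw [Submodule.span_le]
      rintro z (rfl | rfl)
      · exact heW
      · exact hfW
    · have := finrank_span_eq_card hli
      rw [Fintype.card_fin] at this
      have h2 : Set.range ![e, f] = {e, f} := by simp [Set.pair_comm]
      rw [h2] at this
      rw [hdim, this]
  have key : ∀ w ∈ W, Q' w = 1 → w ∈ Submodule.span F {e + f} := by
    intro w hw hw1
    rw [← hspan, Submodule.mem_span_pair] at hw
    obtain ⟨a, b, rfl⟩ := hw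
    rw [hQab] at hw1
    have ha : a ≠ 0 := by rintro rfl; simp at hw1
    have haa := sq_eq_one_of_card_le hq ha
    have hab : b = a := by
      have : a * b = a * a := by rw [hw1, haa]
      exact mul_left_cancel₀ ha this
    rw [hab, ← smul_add]
    exact Submodule.smul_mem _ _ (Submodule.mem_span_singleton_self _)
  have hQv : Q' (e + f) = 1 := by
    have := hQab 1 1
    simpa using this
  refine ⟨e + f, by rw [hQa, hQv]; exact one_ne_zero, ?_⟩
  apply Cfsg.Agent.Lib.Helper58.Asch.le_subspaceStabilizer
  rintro _ ⟨h, hh, rfl⟩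
  rw [Submodule.map_span, Set.image_singleton, Submodule.span_singleton_le_iff_mem,
    Matrix.toLin'_apply]
  apply key
  · exact ((hHW hh) (e + f)).1 (W.add_mem heW hfW)
  · rw [← hQa, hH _ ⟨h, hh, rfl⟩, hQa, hQv]

end Cfsg.Agent.Lib.Helper96.OE
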